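import Mathlib

/-!
# Gauss sums of the squaring map of a finite 2-group

For a finite group `G` and a central subgroup `A` of exponent dividing 2 containing all squares, and a
sign character `lam` of `A`, the sum `S` of `lam (x ^ 2)` satisfies `S ^ 2 = 0` or
`S ^ 2 = #G * #Z` with `Z = {z | lam ⁅x, z⁆ = 1 for all x}`.
-/

set_option autoImplicit false

open scoped commutatorElement

namespace Cfsg.Agent.H447.GaussSum

/-- The abstract form: `ε` is a quadratic function with bimultiplicative polar form `c`. -/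
theorem sq_sum {G : Type*} [Group G] [Fintype G] (ε : G → ℤ) (c : G →* G →* ℤ)
    (hε : ∀ x, ε x * ε x = 1) (hmul : ∀ x y, ε (x * y) = ε x * ε y * c y x) :
    (∑ x, ε x) ^ 2 = 0 ∨
      ((∑ x, ε x) ^ 2 = Nat.card G * Nat.card c.ker ∧ ∀ z ∈ c.ker, ε z = 1) := by
  classical
  have h1 : (∑ x, ε x) ^ 2 = ∑ z, ε z * ∑ x, c z x := by
    have h2 : (∑ x, ε x) ^ 2 = ∑ x, ∑ z, ε z * c z x := by
      rw [sq, Finset.sum_mul_sum]
      refine Finset.sum_congr rfl fun x _ => ?_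
      refine Fintype.sum_bijective (fun y => x⁻¹ * y) (Group.mulLeft_bijective x⁻¹) _ _ fun y => ?_
      have h3 := hmul x (x⁻¹ * y)
      rw [mul_inv_cancel_left] at h3
      rw [h3]
      calc ε x * (ε x * ε (x⁻¹ * y) * c (x⁻¹ * y) x)
          = (ε x * ε x) * (ε (x⁻¹ * y) * c (x⁻¹ * y) x) := by ring
        _ = _ := by rw [hε, one_mul]
    rw [h2, Finset.sum_comm]
    refine Finset.sum_congr rfl fun z _ => ?_
    rw [Finset.mul_sum]
  have h2 : (∑ x, ε x) ^ 2 = (Nat.card G : ℤ) * ∑ z : c.ker, ε z := by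
    rw [h1, Finset.mul_sum]
    have h3 : ∀ z, ε z * ∑ x, c z x = if z ∈ c.ker then (Nat.card G : ℤ) * ε z else 0 := by
      intro z
      rw [sum_hom_units]
      by_cases hz : z ∈ c.ker
      · rw [if_pos hz, if_pos (MonoidHom.mem_ker.1 hz), Nat.card_eq_fintype_card]; ring
      · rw [if_neg hz, if_neg (fun h => hz (MonoidHom.mem_ker.2 h))]; simp
    simp only [h3]
    rw [← Finset.sum_filter]
    exact (Finset.sum_subtype _ (fun z => by simp) (fun z => (Nat.card G : ℤ) * ε z))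
  let f : c.ker →* ℤ :=
    { toFun := fun z => ε z
      map_one' := by
        have h3 := hmul 1 1
        simp only [mul_one, map_one] at h3
        have h4 := hε 1
        have h5 : (c 1) 1 = 1 := by simp
        show ε ((1 : c.ker) : G) = 1
        rw [Subgroup.coe_one]
        rw [h4] at h3
        exact h3
      map_mul' := by
        intro a b
        show ε ((a : G) * (b : G)) = ε a * ε b
        rw [hmul, MonoidHom.mem_ker.1 b.2, MonoidHom.one_apply, mul_one] }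
  by_cases hf : f = 1
  · right
    have hf1 : ∀ z ∈ c.ker, ε z = 1 := fun z hz => DFunLike.congr_fun hf (⟨z, hz⟩ : c.ker)
    refine ⟨?_, hf1⟩
    rw [h2]
    congr 1
    rw [Finset.sum_congr rfl (fun (z : c.ker) _ => hf1 z.1 z.2)]
    simp [Nat.card_eq_fintype_card]
  · left
    rw [h2]
    have h3 : ∑ z : c.ker, ε z = 0 := sum_hom_units_eq_zero f hf
    rw [h3, mul_zero]

variable {G : Type*} [Group G]

theorem commutator_eq_of_sq {A : Subgroup G} (hA : A ≤ Subgroup.center G)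
    (hsq : ∀ x : G, x ^ 2 ∈ A) (x y : G) : ⁅x, y⁆ = (x * y) ^ 2 * (x⁻¹) ^ 2 * (y⁻¹) ^ 2 := by
  have h1 : ∀ g, g * (x⁻¹) ^ 2 = (x⁻¹) ^ 2 * g := Subgroup.mem_center_iff.1 (hA (hsq x⁻¹))
  rw [commutatorElement_def]
  have h2 : (x * y) ^ 2 * (x⁻¹) ^ 2 * (y⁻¹) ^ 2 = x * y * ((x * y) * (x⁻¹) ^ 2) * (y⁻¹) ^ 2 := by
    rw [sq (x * y)]
    simp only [mul_assoc]
  rw [h2, h1]
  rw [sq x⁻¹]
  have h3 : x * y * (x⁻¹ * x⁻¹ * (x * y)) * (y⁻¹) ^ 2 = x * y * x⁻¹ * y⁻¹ := by group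
  rw [h3]

theorem commutator_mem {A : Subgroup G} (hA : A ≤ Subgroup.center G)
    (hsq : ∀ x : G, x ^ 2 ∈ A) (x y : G) : ⁅x, y⁆ ∈ A := by
  rw [commutator_eq_of_sq hA hsq]
  exact mul_mem (mul_mem (hsq _) (hsq _)) (hsq _)

theorem commutator_mul_right {A : Subgroup G} (hA : A ≤ Subgroup.center G)
    (hc : ∀ x y : G, ⁅x, y⁆ ∈ A) (x y z : G) : ⁅x, y * z⁆ = ⁅x, y⁆ * ⁅x, z⁆ := by
  have h1 := Subgroup.mem_center_iff.1 (hA (hc x z))
  have h2 : ⁅x, y * z⁆ = ⁅x, y⁆ * (y * ⁅x, z⁆ * y⁻¹) := by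
    simp only [commutatorElement_def]; group
  rw [h2, h1 y, mul_inv_cancel_right]

theorem commutator_mul_left {A : Subgroup G} (hA : A ≤ Subgroup.center G)
    (hc : ∀ x y : G, ⁅x, y⁆ ∈ A) (x y z : G) : ⁅x * y, z⁆ = ⁅x, z⁆ * ⁅y, z⁆ := by
  have h1 := Subgroup.mem_center_iff.1 (hA (hc y z))
  have h2 : ⁅x * y, z⁆ = (x * ⁅y, z⁆ * x⁻¹) * ⁅x, z⁆ := by
    simp only [commutatorElement_def]; group
  rw [h2, h1 x, mul_inv_cancel_right]
  exact (Subgroup.mem_center_iff.1 (hA (hc y z)) _).symm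

theorem mul_sq_eq {A : Subgroup G} (hA : A ≤ Subgroup.center G)
    (hsq : ∀ x : G, x ^ 2 ∈ A) (x y : G) : (x * y) ^ 2 = x ^ 2 * y ^ 2 * ⁅x, y⁆ := by
  have h1 : ∀ g, g * x ^ 2 = x ^ 2 * g := Subgroup.mem_center_iff.1 (hA (hsq x))
  have h2 : ∀ g, g * ⁅x, y⁆ = ⁅x, y⁆ * g :=
    Subgroup.mem_center_iff.1 (hA (commutator_mem hA hsq x y))
  rw [h2]
  have h3 : ⁅x, y⁆ * (x ^ 2 * y ^ 2) = ⁅x, y⁆ * (x ^ 2 * y) * y := by rw [sq y]; group
  rw [h3, ← h1 y, commutatorElement_def, sq x, sq (x * y)]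
  group

/-- The concrete form, for a sign character `lam` of a central subgroup `A` containing all squares. -/
theorem sq_sum_sign [Fintype G] {A : Subgroup G} (hA : A ≤ Subgroup.center G)
    (hsq : ∀ x : G, x ^ 2 ∈ A) (hexp : ∀ a ∈ A, a ^ 2 = 1) (lam : A →* ℤ) :
    (∑ x : G, lam ⟨x ^ 2, hsq x⟩) ^ 2 = 0 ∨
      ∃ Z : Subgroup G, (∀ z, z ∈ Z ↔ ∀ x, lam ⟨⁅x, z⁆, commutator_mem hA hsq x z⟩ = 1) ∧
        (∑ x : G, lam ⟨x ^ 2, hsq x⟩) ^ 2 = Nat.card G * Nat.card Z ∧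
        ∀ z ∈ Z, lam ⟨z ^ 2, hsq z⟩ = 1 := by
  have hc := commutator_mem hA hsq
  have hlam : ∀ a : A, lam a * lam a = 1 := by
    intro a
    rw [← map_mul]
    have : a * a = 1 := Subtype.ext (by
      have := hexp a a.2
      rw [sq] at this
      exact this)
    rw [this, map_one]
  let c : G →* G →* ℤ :=
    { toFun := fun y =>
        { toFun := fun x => lam ⟨⁅x, y⁆, hc x y⟩
          map_one' := by
            have : (⟨⁅(1 : G), y⁆, hc 1 y⟩ : A) = 1 := Subtype.ext (by simp)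
            rw [this, map_one]
          map_mul' := by
            intro x x'
            rw [← map_mul]
            congr 1
            exact Subtype.ext (commutator_mul_left hA hc x x' y) }
      map_one' := by
        ext x
        show lam ⟨⁅x, (1 : G)⁆, hc x 1⟩ = 1
        have : (⟨⁅x, (1 : G)⁆, hc x 1⟩ : A) = 1 := Subtype.ext (by simp)
        rw [this, map_one]
      map_mul' := by
        intro y y'
        ext x
        show lam ⟨⁅x, y * y'⁆, hc x (y * y')⟩ = lam ⟨⁅x, y⁆, hc x y⟩ * lam ⟨⁅x, y'⁆, hc x y'⟩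
        rw [← map_mul]
        congr 1
        exact Subtype.ext (commutator_mul_right hA hc x y y') }
  have hcapp : ∀ x y, c y x = lam ⟨⁅x, y⁆, hc x y⟩ := fun _ _ => rfl
  rcases sq_sum (fun x => lam ⟨x ^ 2, hsq x⟩) c (fun x => hlam _) (by
    intro x y
    show lam ⟨(x * y) ^ 2, _⟩ = lam ⟨x ^ 2, _⟩ * lam ⟨y ^ 2, _⟩ * lam ⟨⁅x, y⁆, _⟩
    rw [← map_mul, ← map_mul]
    congr 1
    exact Subtype.ext (mul_sq_eq hA hsq x y)) with h | ⟨h1, h2⟩
  · exact Or.inl h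
  · refine Or.inr ⟨c.ker, ?_, h1, h2⟩
    intro z
    rw [MonoidHom.mem_ker]
    constructor
    · intro hz x
      rw [← hcapp, hz]; rfl
    · intro hz
      ext x
      rw [hcapp, hz]; rfl

/-- If `S ^ 2 = 2 ^ m` for an integer `S`, then `|S| = 2 ^ k` with `m = 2 * k`. -/
theorem natAbs_eq_pow {S : ℤ} {m : ℕ} (h : S ^ 2 = 2 ^ m) : ∃ k : ℕ, m = 2 * k ∧ S.natAbs = 2 ^ k := by
  have h1 : S.natAbs ^ 2 = 2 ^ m := by
    have := congrArg Int.natAbs h
    rw [Int.natAbs_pow, Int.natAbs_pow] at this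
    exact this
  have h2 : S.natAbs ∣ 2 ^ m := ⟨S.natAbs, by rw [← h1, sq]⟩
  obtain ⟨k, -, hk⟩ := (Nat.dvd_prime_pow Nat.prime_two).1 h2
  refine ⟨k, ?_, hk⟩
  rw [hk, ← pow_mul] at h1
  have := Nat.pow_right_injective (le_refl 2) h1
  rw [← this]; ring

end Cfsg.Agent.H447.GaussSum
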