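import Cfsg.Agent.UGT.NodeE
import Cfsg.Agent.UGT.LemG

/-!
# Unbalancing triples

`IsTriple x a L` (some element of `O(C(x)) ∩ C(a)` does not centralize `L / O(L)`) gives
`L = O(L) [L, O(C(x)) ∩ C(a)]`.
-/

set_option autoImplicit false

open Cfsg Subgroup
open Cfsg.Agent.SignalizersComponents Cfsg.Agent.Lib
open Cfsg.Agent.SignalizersComponents.IntrinsicBasic
open Cfsg.Agent.Intrinsic.Basic
open Cfsg.Agent.UGT.Triple
open scoped commutatorElement

namespace Cfsg.Agent.H447.UnbalTriple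

variable {G : Type*} [Group G] [Finite G]

omit [Finite G] in
theorem comm_le {A B H : Subgroup G} (hA : A ≤ H) (hB : B ≤ H) : ⁅A, B⁆ ≤ H := by
  rw [commutator_le]
  intro a ha b hb
  rw [commutatorElement_def]
  exact mul_mem (mul_mem (mul_mem (hA ha) (hB hb)) (inv_mem (hA ha))) (inv_mem (hB hb))

omit [Finite G] in
/-- Three subgroups lemma modulo the core: `[L, [L, D]] ≤ O(H)` gives `[L, D] ≤ O(H)` for perfect `L`. -/
theorem comm_le_core_of_comm_comm {H L D : Subgroup G} (hLH : L ≤ H) (hDH : D ≤ H) (hL : ⁅L, L⁆ = L)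
    (h : ⁅L, ⁅L, D⁆⁆ ≤ core H) : ⁅L, D⁆ ≤ core H := by
  let f := QuotientGroup.mk' (pPrimeCore 2 ↥H)
  have key : ∀ A : Subgroup G, A ≤ H → (A ≤ core H ↔ (A.subgroupOf H).map f = ⊥) := by
    intro A hA
    rw [Subgroup.map_eq_bot_iff, QuotientGroup.ker_mk']
    constructor
    · intro h1 y hy
      exact (mem_core_iff y.2).mp (h1 hy)
    · intro h1 y hy
      exact (mem_core_iff (hA hy)).mpr (h1 (mem_subgroupOf.mpr (show ((⟨y, hA hy⟩ : H) : G) ∈ A from hy)))
  have hc : ∀ A B : Subgroup G, A ≤ H → B ≤ H →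
      (⁅A, B⁆.subgroupOf H).map f = ⁅(A.subgroupOf H).map f, (B.subgroupOf H).map f⁆ := by
    intro A B hA hB
    rw [← map_commutator]
    congr 1
    apply Subgroup.map_injective H.subtype_injective
    rw [map_commutator, subgroupOf_map_subtype, subgroupOf_map_subtype, subgroupOf_map_subtype,
      inf_of_le_left hA, inf_of_le_left hB, inf_of_le_left (comm_le hA hB)]
  have hLD : ⁅L, D⁆ ≤ H := comm_le hLH hDH
  rw [key _ (comm_le hLH hLD), hc _ _ hLH hLD, hc _ _ hLH hDH] at h
  rw [key _ hLD, hc _ _ hLH hDH]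
  have hLL : ⁅(L.subgroupOf H).map f, (L.subgroupOf H).map f⁆ = (L.subgroupOf H).map f := by
    rw [← hc _ _ hLH hLH, hL]
  rw [← hLL]
  apply commutator_commutator_eq_bot_of_rotate
  · rw [commutator_comm]; exact h
  · rw [commutator_comm, commutator_comm ((D.subgroupOf H).map f)]; exact h

/-- `L = O(L) [L, O(C(x)) ∩ C(a)]`. -/
theorem eq_sup_of_triple {x a : G} {L : Subgroup G} (T : IsTriple x a L) :
    L = core L ⊔ ⁅L, core (centralizer ({x} : Set G)) ⊓ centralizer ({a} : Set G)⁆ := by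
  obtain ⟨H, hH⟩ : ∃ H, H = centralizer ({a} : Set G) := ⟨_, rfl⟩
  obtain ⟨D, hD⟩ : ∃ D, D = core (centralizer ({x} : Set G)) ⊓ centralizer ({a} : Set G) := ⟨_, rfl⟩
  rw [← hD]
  have hL : IsComp H L := hH ▸ T.comp
  have hDH : D ≤ H := by rw [hD, hH]; exact inf_le_right
  have hDL : D ≤ normalizer (L : Set G) := by
    intro d hd
    rw [hD] at hd
    exact T.mem_normalizer_of_core hd.1 hd.2
  have h1 : ⁅L, D⁆ ≤ L := le_normalizer_iff_commutator_le_left.mp hDL
  obtain ⟨S, hS⟩ : ∃ S, S = core L ⊔ ⁅L, D⁆ := ⟨_, rfl⟩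
  rw [← hS]
  have hSL : S ≤ L := by rw [hS]; exact sup_le (core_le L) h1
  have hLS : L ≤ normalizer (S : Set G) := by
    rw [hS]
    exact (le_inf (le_normalizer_core L) (normalizer_commutator_ge_left L D)).trans
      (normalizer_inf_normalizer_le_normalizer_sup _ _)
  have hsub : (S.subgroupOf H).IsSubnormal := by
    refine IsSubnormal.step _ (L.subgroupOf H) ?_ (isComp_iff.mp hL).2.1 ?_
    · exact Subgroup.comap_mono hSL
    · refine ⟨?_⟩
      rintro ⟨⟨y, hyH⟩, hyL⟩ hy ⟨⟨g, hgH⟩, hgL⟩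
      exact (mem_normalizer_iff.mp (hLS hgL) y).mp hy
  rcases hL.le_or_comm (hSL.trans hL.le) hsub with h | h
  · exact le_antisymm h hSL
  · exfalso
    have h2 : ⁅L, ⁅L, D⁆⁆ ≤ core H := by
      refine le_trans ?_ h
      exact commutator_mono le_rfl (by rw [hS]; exact le_sup_right)
    have h3 := comm_le_core_of_comm_comm hL.le hDH hL.perfect h2
    obtain ⟨d, hd, hda, hf⟩ := T.bad
    have hdD : d ∈ D := by rw [hD]; exact ⟨hd, hda⟩
    apply hf
    refine UGT.LemG.fixes_of_comm_core hL (hDH hdD) ?_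
    intro j hj
    have h4 : ⁅j, d⁆ ∈ core H := h3 (commutator_mem_commutator hj hdD)
    rw [← commutatorElement_inv]
    exact inv_mem h4

omit [Finite G] in
/-- The core of `L` computed in a subgroup `H ≥ L`. -/
theorem map_oddCore_subgroupOf {H L : Subgroup G} (hLH : L ≤ H) :
    (Cfsg.oddCore ↥(L.subgroupOf H)).map (H.subtype.comp (L.subgroupOf H).subtype) = core L := by
  have h1 : (Cfsg.oddCore ↥(L.subgroupOf H)).map (subgroupOfEquivOfLe hLH).toMonoidHom = Cfsg.oddCore ↥L :=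
    Lib.Cores.map_equiv_pPrimeCore (subgroupOfEquivOfLe hLH) 2
  unfold core
  rw [← h1, Subgroup.map_map]
  rfl

/-- The form of S3111. -/
theorem exists_of_triple {x a : G} {L : Subgroup G} (T : IsTriple x a L) :
    ∃ (a x : G) (L : Subgroup ↥(Subgroup.centralizer ({a} : Set G))), orderOf a = 2 ∧ orderOf x = 2 ∧ Commute a x ∧
        Cfsg.IsPComponent 2 L ∧ (∀ l ∈ L.map (Subgroup.centralizer ({a} : Set G)).subtype, x * l * x⁻¹ ∈ L.map (Subgroup.centralizer ({a} : Set G)).subtype) ∧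
        L.map (Subgroup.centralizer ({a} : Set G)).subtype =
          (Cfsg.oddCore ↥L).map ((Subgroup.centralizer ({a} : Set G)).subtype.comp L.subtype) ⊔
            ⁅L.map (Subgroup.centralizer ({a} : Set G)).subtype, Cfsg.centralizerPPrimeCore 2 x ⊓ Subgroup.centralizer ({a} : Set G)⁆ := by
  have hLH := T.comp.le
  have hm : (L.subgroupOf (centralizer ({a} : Set G))).map (centralizer ({a} : Set G)).subtype = L := by
    rw [subgroupOf_map_subtype, inf_of_le_left hLH]
  refine ⟨a, x, L.subgroupOf (centralizer ({a} : Set G)), T.inva, T.invx, T.comm, T.comp.2, ?_, ?_⟩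
  · rw [hm]
    intro l hl
    exact (mem_normalizer_iff.mp T.x_mem l).mp hl
  · rw [hm, map_oddCore_subgroupOf hLH]
    exact eq_sup_of_triple T

/-- A finite group which is not balanced has an unbalancing triple. -/
theorem exists_of_not_balanced (hb : ¬ Cfsg.IsBalanced G) :
    ∃ (a x : G) (L : Subgroup ↥(Subgroup.centralizer ({a} : Set G))), orderOf a = 2 ∧ orderOf x = 2 ∧ Commute a x ∧
        Cfsg.IsPComponent 2 L ∧ (∀ l ∈ L.map (Subgroup.centralizer ({a} : Set G)).subtype, x * l * x⁻¹ ∈ L.map (Subgroup.centralizer ({a} : Set G)).subtype) ∧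
        L.map (Subgroup.centralizer ({a} : Set G)).subtype =
          (Cfsg.oddCore ↥L).map ((Subgroup.centralizer ({a} : Set G)).subtype.comp L.subtype) ⊔
            ⁅L.map (Subgroup.centralizer ({a} : Set G)).subtype, Cfsg.centralizerPPrimeCore 2 x ⊓ Subgroup.centralizer ({a} : Set G)⁆ := by
  by_contra hno
  apply hb
  exact UGT.NodeE.balanced fun x a L hT => hno (exists_of_triple hT)

end Cfsg.Agent.H447.UnbalTriple
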